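import Mathlib
import Cfsg.Prelude.Def_GeometricClasses

set_option autoImplicit false

/-! # Subgroup structure of the linear groups: shared vocabulary -/

namespace Cfsg.Agent.Lib.Helper13.Asch

open Cfsg Cfsg.Geo Matrix
open scoped Kronecker MatrixGroups

variable {ι : Type} [Fintype ι] [DecidableEq ι] {F : Type*} [Field F]

/-- the enveloping algebra of a matrix group -/
def env (N : Subgroup (GL ι F)) : Subalgebra F (Matrix ι ι F) := Algebra.adjoin F (matrixSet N)

/-- `H` normalises `N` -/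
def Nrm (H N : Subgroup (GL ι F)) : Prop := ∀ h ∈ H, ∀ x ∈ N, h * x * h⁻¹ ∈ N

/-- the subspace `W` is invariant under the set of matrices `A` -/
def Inv (A : Set (Matrix ι ι F)) (W : Submodule F (ι → F)) : Prop :=
  ∀ a ∈ A, W.map (Matrix.toLin' a) ≤ W

/-- every invariant subspace has an invariant complement -/
def SS (A : Subalgebra F (Matrix ι ι F)) : Prop :=
  ∀ W : Submodule F (ι → F), Inv (A : Set (Matrix ι ι F)) W →
    ∃ W' : Submodule F (ι → F), Inv (A : Set (Matrix ι ι F)) W' ∧ IsCompl W W'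

/-- every normal subgroup is scalar or spans the full matrix algebra -/
def QP (H : Subgroup (GL ι F)) : Prop :=
  ∀ N : Subgroup (GL ι F), N ≤ H → Nrm H N → N ≤ scalars ι F ∨ env N = ⊤

/-- `H` lies in a member of one of the eight classes -/
def InCls [Fintype F] (n : ℕ) (H : Subgroup (GL (Fin n) F)) : Prop :=
  ∃ M : Subgroup (GL (Fin n) F), InLinearClass n F M ∧ H ≤ M

/-- `X ↦ P (X ⊗ 1) P⁻¹` -/
def embL {a b : ℕ} (e : ι ≃ Fin a × Fin b) (P : GL ι F) (X : Matrix (Fin a) (Fin a) F) :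
    Matrix ι ι F :=
  (P : Matrix ι ι F) * Matrix.reindex e.symm e.symm (X ⊗ₖ (1 : Matrix (Fin b) (Fin b) F)) *
    ((P⁻¹ : GL ι F) : Matrix ι ι F)

/-- `X` acting on the `i`-th tensor factor -/
def stdT {m t : ℕ} (i : Fin t) (X : Matrix (Fin m) (Fin m) F) :
    Matrix (Fin t → Fin m) (Fin t → Fin m) F :=
  fun x y => if ∀ j, j ≠ i → x j = y j then X (x i) (y i) else 0

/-- `X ↦ P (1 ⊗ ⋯ ⊗ X ⊗ ⋯ ⊗ 1) P⁻¹` -/
def embT {m t : ℕ} (e : ι ≃ (Fin t → Fin m)) (P : GL ι F) (i : Fin t)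
    (X : Matrix (Fin m) (Fin m) F) : Matrix ι ι F :=
  (P : Matrix ι ι F) * Matrix.reindex e.symm e.symm (stdT i X) * ((P⁻¹ : GL ι F) : Matrix ι ι F)

/-- the form with Gram matrix `G`, semilinear in the second variable -/
def gform (σ : F →+* F) (G : Matrix ι ι F) (u v : ι → F) : F := u ⬝ᵥ (G *ᵥ (fun i => σ (v i)))

end Cfsg.Agent.Lib.Helper13.Asch
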