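import Cfsg.Agent.Lib.Helper13.Asch.Defs2

set_option autoImplicit false

/-! # Subgroup structure of the linear groups: the refined list of classes -/

namespace Cfsg.Agent.Lib.Helper13.Asch

open Cfsg Cfsg.Geo Matrix
open scoped Kronecker MatrixGroups

variable {F : Type*} [Field F]

/-- `H` lies in a member of one of the eight classes; the same list as `InLinearClass`, stated for
`H` directly, with the extra information `n = r ^ m` in class 6 -/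
def Cls [Fintype F] (n : ℕ) (H : Subgroup (GL (Fin n) F)) : Prop :=
  (∃ W : Submodule F (Fin n → F), W ≠ ⊥ ∧ W ≠ ⊤ ∧ H ≤ subspaceStabilizer W) ∨
  (∃ (t m : ℕ) (D : Fin t → Submodule F (Fin n → F)), IsMDecomposition m D ∧
      H ≤ decompositionStabilizer D) ∨
  (∃ (r : ℕ) (K : Subalgebra F (Matrix (Fin n) (Fin n) F)), r.Prime ∧ IsFieldSubalgebra r K ∧
      H ≤ subalgebraNormalizer K) ∨
  (∃ (n₁ n₂ : ℕ) (e : Fin n ≃ Fin n₁ × Fin n₂) (P : GL (Fin n) F), 2 ≤ n₁ ∧ n₁ < n₂ ∧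
      H ≤ tensorProductSubgroup n₁ n₂ e P) ∨
  (∃ (F₀ : Subfield F) (r : ℕ) (P : GL (Fin n) F), r.Prime ∧ Fintype.card F = Nat.card F₀ ^ r ∧
      H ≤ subfieldSubgroup F₀ P) ∨
  (∃ (r m : ℕ) (R : Subgroup (GL (Fin n) F)), IsLinearSymplecticTypeData r R ∧ 1 ≤ m ∧ n = r ^ m ∧
      H ≤ subgroupNormalizer R) ∨
  (∃ (m t : ℕ) (e : Fin n ≃ (Fin t → Fin m)) (P : GL (Fin n) F), 3 ≤ m ∧ 2 ≤ t ∧
      H ≤ tensorWreathSubgroup m t e P) ∨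
  (∃ f : (Fin n → F) → (Fin n → F) → F, IsSymplecticForm f ∧ Even n ∧ 4 ≤ n ∧
      H ≤ similarityGroup f) ∨
  (∃ (σ : F ≃+* F) (f : (Fin n → F) → (Fin n → F) → F), IsUnitaryForm σ f ∧
      H ≤ similarityGroup f) ∨
  (∃ Q : (Fin n → F) → F, IsNondegenerateQuadraticForm Q ∧ Odd (Fintype.card F) ∧
      H ≤ quadSimilarityGroup Q)

theorem Cls.inCls [Fintype F] {n : ℕ} (hn : 3 ≤ n) {H : Subgroup (GL (Fin n) F)} (h : Cls n H) :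
    InCls n H := by
  rcases h with ⟨W, h0, h1, h⟩ | ⟨t, m, D, hD, h⟩ | ⟨r, K, hr, hK, h⟩ | ⟨a, b, e, P, ha, hb, h⟩ |
    ⟨F₀, r, P, hr, hc, h⟩ | ⟨r, m, R, hR, -, -, h⟩ | ⟨m, t, e, P, hm, ht, h⟩ | ⟨f, hf, he, h4, h⟩ |
    ⟨σ, f, hf, h⟩ | ⟨Q, hQ, ho, h⟩
  · exact ⟨_, Or.inl ⟨W, h0, h1, rfl⟩, h⟩
  · exact ⟨_, Or.inr (Or.inr (Or.inr (Or.inl ⟨t, m, D, hD, rfl⟩))), h⟩
  · exact ⟨_, Or.inr (Or.inr (Or.inr (Or.inr (Or.inl ⟨r, K, hr, hK, rfl⟩)))), h⟩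
  · exact ⟨_, Or.inr (Or.inr (Or.inr (Or.inr (Or.inr (Or.inl ⟨a, b, e, P, ha, hb, rfl⟩))))), h⟩
  · exact ⟨_, Or.inr (Or.inr (Or.inr (Or.inr (Or.inr (Or.inr (Or.inl ⟨F₀, r, P, hr, hc, rfl⟩)))))), h⟩
  · exact ⟨_, Or.inr (Or.inr (Or.inr (Or.inr (Or.inr (Or.inr (Or.inr (Or.inl ⟨r, R, hR, rfl⟩))))))), h⟩
  · exact ⟨_, Or.inr (Or.inr (Or.inr (Or.inr (Or.inr (Or.inr (Or.inr (Or.inr
      (Or.inl ⟨m, t, e, P, hm, ht, rfl⟩)))))))), h⟩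
  · exact ⟨_, Or.inr (Or.inr (Or.inr (Or.inr (Or.inr (Or.inr (Or.inr (Or.inr
      (Or.inr (Or.inl ⟨f, hf, he, h4, rfl⟩))))))))), h⟩
  · exact ⟨_, Or.inr (Or.inr (Or.inr (Or.inr (Or.inr (Or.inr (Or.inr (Or.inr
      (Or.inr (Or.inr (Or.inl ⟨σ, f, hf, hn, rfl⟩)))))))))), h⟩
  · exact ⟨_, Or.inr (Or.inr (Or.inr (Or.inr (Or.inr (Or.inr (Or.inr (Or.inr
      (Or.inr (Or.inr (Or.inr ⟨Q, hQ, ho, hn, rfl⟩)))))))))), h⟩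

end Cfsg.Agent.Lib.Helper13.Asch
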