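import Cfsg.Agent.Lib.Helper13.Asch.Defs

set_option autoImplicit false

/-! # Subgroup structure of the linear groups: data for the symplectic-type case -/

namespace Cfsg.Agent.Lib.Helper13.Asch

open Cfsg Cfsg.Geo Matrix
open scoped Kronecker MatrixGroups

variable {ι : Type} [Fintype ι] [DecidableEq ι] {F : Type*} [Field F]

/-- `N` is minimal among the subgroups of `H` normalised by `H` and properly containing the
scalars of `H` -/
structure MinNormal (H N : Subgroup (GL ι F)) : Prop where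
  le : N ≤ H
  nrm : Nrm H N
  sc_le : H ⊓ scalars ι F ≤ N
  not_sc : ¬ N ≤ scalars ι F
  min : ∀ M : Subgroup (GL ι F), H ⊓ scalars ι F ≤ M → M ≤ N → Nrm H M →
    M = H ⊓ scalars ι F ∨ M = N

/-- `Nh` contains the scalars, is of class two modulo scalars, spans all matrices, has exponent
`r` modulo scalars and is a minimal `H`-invariant such group -/
structure SympData (H Nh : Subgroup (GL ι F)) (r : ℕ) : Prop where
  prime : r.Prime
  sc_le : scalars ι F ≤ Nh
  nrm : Nrm H Nh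
  comm : ∀ x ∈ Nh, ∀ y ∈ Nh, x * y * x⁻¹ * y⁻¹ ∈ scalars ι F
  envTop : env Nh = ⊤
  pow : ∀ x ∈ Nh, x ^ r ∈ scalars ι F
  min : ∀ M : Subgroup (GL ι F), scalars ι F ≤ M → M ≤ Nh → Nrm H M → M = scalars ι F ∨ M = Nh

/-- the `r`-group `R` of exponent `r * gcd 2 r` extracted from `SympData` -/
structure RData (H R : Subgroup (GL ι F)) (r : ℕ) : Prop where
  prime : r.Prime
  nrm : Nrm H R
  comm : ∀ x ∈ R, ∀ y ∈ R, x * y * x⁻¹ * y⁻¹ ∈ scalars ι F
  envTop : env R = ⊤
  exp : ∀ x ∈ R, x ^ (r * Nat.gcd 2 r) = 1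
  sc : ∀ g ∈ scalars ι F, g ^ (r * Nat.gcd 2 r) = 1 → g ∈ R
  min : ∀ M : Subgroup (GL ι F), R ⊓ scalars ι F ≤ M → M ≤ R → Nrm H M →
    M = R ⊓ scalars ι F ∨ M = R

end Cfsg.Agent.Lib.Helper13.Asch
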