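import Cfsg.Agent.Lib.Helper13.Asch.Defs3
import Cfsg.Agent.Lib.Helper60.Asch.G1
import Cfsg.Agent.Lib.Helper60.Asch.G2
import Cfsg.Agent.Lib.Helper60.Asch.K0
import Cfsg.Agent.Lib.Helper60.Asch.K1
import Cfsg.Agent.Lib.Helper12.Asch.C1
import Cfsg.Agent.Lib.Helper12.Asch.K2a
import Cfsg.Agent.Lib.Helper12.Asch.K2b
import Cfsg.Agent.Lib.Helper91.Asch.C5

set_option autoImplicit false

/-! # The subgroup structure theorem for the linear groups: assembly -/

namespace Cfsg.Agent.Lib.Helper13.Asch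

open Cfsg Cfsg.Geo Matrix
open scoped Kronecker MatrixGroups

variable {F : Type*} [Field F]

theorem not_irred_of_le_scalars {n : ℕ} (hn : 2 ≤ n) {H : Subgroup (GL (Fin n) F)}
    (hsc : H ≤ scalars (Fin n) F) : ¬ ActsIrreducibly (matrixSet H) := by
  intro hirr
  have h0 : (0 : ℕ) < n := by omega
  have h1 : (1 : ℕ) < n := by omega
  let v : Fin n → F := Pi.single ⟨0, h0⟩ 1
  have hW := hirr (Submodule.span F {v}) (by
    rintro s ⟨g, hg, rfl⟩
    obtain ⟨c, hc⟩ := (mem_scalars_iff g).1 (hsc hg)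
    rw [Submodule.map_le_iff_le_comap]
    intro x hx
    rw [Submodule.mem_comap]
    have : Matrix.toLin' (g : Matrix (Fin n) (Fin n) F) x = (c : F) • x := by
      rw [hc]; simp
    rw [this]
    exact Submodule.smul_mem _ _ hx)
  rcases hW with hW | hW
  · rw [Submodule.span_singleton_eq_bot] at hW
    have := congrFun hW ⟨0, h0⟩
    simp [v] at this
  · have hmem : (Pi.single ⟨1, h1⟩ 1 : Fin n → F) ∈ Submodule.span F {v} := by rw [hW]; trivial
    obtain ⟨a, ha⟩ := Submodule.mem_span_singleton.1 hmem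
    have := congrFun ha ⟨1, h1⟩
    simp [v] at this

/-- Every subgroup of `GL_n(q)`, `n ≥ 3`, lies in a member of one of the (refined) geometric classes
or is in the residual class. -/
theorem main [Fintype F] (n : ℕ) (hn : 3 ≤ n) (H : Subgroup (GL (Fin n) F)) :
    Cls n H ∨ InLinearResidualClass H := by
  rcases Cfsg.Agent.Lib.Helper60.Asch.qp_or_class hn H with h | ⟨hirr, hQP⟩
  · exact Or.inl h
  by_cases hsc : H ≤ scalars (Fin n) F
  · exact absurd hirr (not_irred_of_le_scalars (by omega) hsc)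
  obtain ⟨N, hN⟩ := Cfsg.Agent.Lib.Helper60.Asch.exists_minNormal H hsc
  have henv : env N = ⊤ := (hQP N hN.le hN.nrm).resolve_left hN.not_sc
  by_cases hab : ⁅N, N⁆ ≤ scalars (Fin n) F
  · obtain ⟨r, hS⟩ := Cfsg.Agent.Lib.Helper60.Asch.sympData_of_abelian hN henv hab
    obtain ⟨R, hR⟩ := Cfsg.Agent.Lib.Helper12.Asch.exists_RData
      (by simpa using (by omega : 2 ≤ n)) hS
    exact Or.inl (Cfsg.Agent.Lib.Helper91.Asch.c6_of_RData hn hR)
  · by_cases hs : ∀ L : Subgroup (GL (Fin n) F), H ⊓ scalars (Fin n) F ≤ L → L ≤ N → Nrm N L →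
      L = H ⊓ scalars (Fin n) F ∨ L = N
    · exact Cfsg.Agent.Lib.Helper60.Asch.residual_of_simple hn hQP hN hab hs
    · obtain ⟨t, P, ht, h1, h2, h3, h4, h5, h6⟩ :=
        Cfsg.Agent.Lib.Helper12.Asch.exists_family hN hab hs
      exact Or.inl (Cfsg.Agent.Lib.Helper12.Asch.tensor_of_family hn hQP ht P h1 h2 h3 h4 h5 h6)

end Cfsg.Agent.Lib.Helper13.Asch
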